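import Cfsg.Agent.H6.C7U.Q8
import Cfsg.Agent.H5.U.Bridge
import Cfsg.Agent.H2.S7N

/-! The centraliser of the involution does not induce a subfield group `SU₃(q₀)`. -/

set_option autoImplicit false
set_option linter.unusedSimpArgs false
set_option linter.unusedSectionVars false
set_option linter.unusedVariables false

namespace Cfsg.Agent.H6.C7U

open Matrix Cfsg.Agent.H5.U Cfsg.Agent.H7

variable {F : Type*} [Field F]

theorem tr_inv {y : Matrix (Fin 3) (Fin 3) F} (h : y * y = 1) (d : y.det = 1) (n : ¬ IsScal y) :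
    y.trace = -1 := by
  by_contra t
  refine n ⟨1, ?_⟩
  have a : y.adjugate = y := by
    have := congrArg (y * ·) (mul_adjugate y)
    simpa [← Matrix.mul_assoc, h, d] using this
  have t' : y 0 0 + y 1 1 + y 2 2 + 1 ≠ 0 := fun e => t (by rw [trace_fin_three]; linear_combination e)
  rw [adjugate_fin_three] at a
  simp only [← Matrix.ext_iff, Fin.forall_fin_succ, mul_apply, Fin.sum_univ_three] at a h ⊢
  simp at a h ⊢
  obtain ⟨⟨a0, a1, a2⟩, ⟨a3, a4, a5⟩, a6, a7, a8⟩ := a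
  obtain ⟨⟨b0, b1, b2⟩, ⟨b3, b4, b5⟩, b6, b7, b8⟩ := h
  refine ⟨⟨?_, ?_, ?_⟩, ⟨?_, ?_, ?_⟩, ?_, ?_, ?_⟩ <;> apply mul_left_cancel₀ t'
  · linear_combination b0 + a4 + a8
  · linear_combination b1 - a1
  · linear_combination b2 - a2
  · linear_combination b3 - a3
  · linear_combination b4 + a0 + a8
  · linear_combination b5 - a5
  · linear_combination b6 - a6
  · linear_combination b7 - a7
  · linear_combination b8 + a0 + a4

/-- general form -/
theorem no_su3' {G : Type*} [Group G] [Finite F] (h2 : (2 : F) ≠ 0) {n : Type} [Fintype n] [DecidableEq n]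
    [Nonempty n] (a : G →* GL (Fin 3) F) (b : G →* GL n F)
    (hk : ∀ g, a g = 1 → (b g).1 = 1 ∨ (b g).1 = -1) {P : Subgroup (GL (Fin 3) F)} {g : GL (Fin 3) F}
    {k : Subfield F} {q : ℕ} (hP : H8.IsSU3 P g k q) (le : P ≤ a.range) (nm : NormG a.range P) {f : G}
    (f1 : a f * a f = 1) (f2 : ¬ IsScal (a f).1) (f4 : (a f).1.det = 1)
    (hf : (b f).1 * (b f).1 = -1) : False := by
  letI := Fintype.ofFinite k
  letI := Fintype.ofFinite F
  have hq : Fintype.card k = q ^ 2 := Nat.card_eq_fintype_card.symm.trans hP.1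
  obtain ⟨p, hp⟩ := CharP.exists F
  obtain ⟨β, -, hβ⟩ := exists_q_eq_pow hq p
  obtain ⟨σ, hσ⟩ := exists_powHom (F := F) (p := p) (k := β)
  rw [← hβ] at hσ
  have hm : ∀ A : Matrix (Fin 3) (Fin 3) F, A.map (· ^ q) = A.map σ := fun A => by ext; simp [hσ]
  have dc : ∀ B : GL (Fin 3) F, (g * B * g⁻¹).1.det = B.1.det := fun B => by
    rw [Units.val_mul, Units.val_mul, det_units_conj]
  have cc : ∀ B : GL (Fin 3) F, g⁻¹ * (g * B * g⁻¹) * g = B := fun B => by group
  have hL : ∀ B, B ∈ PA.cjP P g ↔ B.1.det = 1 ∧ (∀ i j, B i j ∈ k) ∧ B.1ᵀ * B.1.map σ = 1 := fun B => by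
    rw [PA.mem_cjP, hP.2, dc, cc, hm]
  have ai : AbsIrr (PA.cjP P g) := absIrr_of_cjP (g := g⁻¹) (by rw [PA.cjP_cjP]; exact absIrr_isSU3 h2 hP)
  obtain ⟨y, hy⟩ : ∃ y, y = g⁻¹ * a f * g := ⟨_, rfl⟩
  have hy' : a f = g * y * g⁻¹ := by rw [hy]; group
  obtain ⟨d, d0, e⟩ := ai.tw_of_normG (H := PA.cjP a.range g) (fun h hh x hx => by
      have := nm _ hh _ hx
      simpa [PA.mem_cjP, mul_assoc] using this) σ (G := 1) (by simp)
    (fun x hx => by simpa [tw] using ((hL x).1 hx).2.2) (k := y) (by rw [PA.mem_cjP, ← hy']; exact ⟨f, rfl⟩)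
  rw [tw, mul_one] at e
  have y1 : y.1 * y.1 = 1 := by
    rw [← Units.val_mul, hy, show g⁻¹ * a f * g * (g⁻¹ * a f * g) = g⁻¹ * (a f * a f) * g by group, f1]; simp
  have y2 : y.1.det = 1 := by rw [← dc, ← hy', f4]
  have y3 : ¬ IsScal y.1 := fun ⟨c, hc⟩ => f2 ⟨c, by rw [hy', Units.val_mul, Units.val_mul, hc]; simp⟩
  have d3 : d ^ 3 = 1 := by
    simpa [← RingHom.mapMatrix_apply, ← RingHom.map_det, y2] using (congrArg det e).symm
  have d2 : d * d = 1 := by
    have : y.1ᵀ * (y.1ᵀ * y.1.map σ) * y.1.map σ = 1 := by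
      rw [← Matrix.mul_assoc, ← transpose_mul, y1, transpose_one, one_mul, ← Matrix.map_mul, y1,
        Matrix.map_one _ σ.map_zero σ.map_one]
    rw [e, mul_smul_comm, mul_one, smul_mul_assoc, e, smul_smul] at this
    simpa using congrFun (congrFun this 0) 0
  rw [show d = 1 by linear_combination d3 - d * d2, one_smul] at e
  have y4 : y.1.map σ = y.1ᵀ := by
    have := congrArg (y.1ᵀ * ·) e
    simpa [← Matrix.mul_assoc, ← transpose_mul, y1] using this
  have y5 : ∀ i j, σ (y.1 i j) = y.1 j i := fun i j => congrFun (congrFun y4 i) j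
  have y6 : ∀ i j, y.1 i j ∈ k := fun i j => by
    rw [mem_subfield_iff_pow, hP.1, sq, pow_mul, ← hσ, ← hσ, y5, y5]
  letI := powStar hq
  haveI := powStar_nstar hq
  have st : ∀ x : k, ((star x : k) : F) = σ x := fun x => by rw [hσ]; rfl
  have k2 : (2 : k) ≠ 0 := fun e => h2 (congrArg Subtype.val e)
  obtain ⟨i, hi⟩ := (FiniteField.isSquare_neg_one_iff (F := k)).2 (by
    rw [hq, Nat.pow_mod]
    have : q % 4 < 4 := Nat.mod_lt _ (by norm_num)
    interval_cases q % 4 <;> norm_num)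
  let z : Matrix (Fin 3) (Fin 3) k := of fun i j => ⟨y.1 i j, y6 i j⟩
  have ez : z.map k.subtype = y.1 := rfl
  have inj : ∀ X Y : Matrix (Fin 3) (Fin 3) k, X.map k.subtype = Y.map k.subtype → X = Y :=
    fun X Y h => map_injective k.subtype.injective h
  obtain ⟨s, t, s1, t1, s2, t2, s3, t3, s4⟩ := q8_su k2 hi.symm (y := z)
    (by ext i j; exact (st _).trans (y5 j i))
    (inj _ _ (by rw [Matrix.map_mul, ez, y1, Matrix.map_one _ (map_zero _) (map_one _)]))
    (k.subtype.injective (by rw [AddMonoidHom.map_trace, ez, tr_inv y1 y2 y3]; simp))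
  have up : ∀ s : Matrix (Fin 3) (Fin 3) k, sᴴ * s = 1 → s.det = 1 →
      ∃ S ∈ PA.cjP P g, S.1 = s.map k.subtype := fun s h1 h2 => by
    have : (s.map k.subtype).det = 1 := by rw [← RingHom.mapMatrix_apply, ← RingHom.map_det, h2, map_one]
    refine ⟨GeneralLinearGroup.mkOfDetNeZero _ (this ▸ one_ne_zero), (hL _).2 ⟨this, fun i j => (s i j).2, ?_⟩, rfl⟩
    have h3 := congrArg (fun X => (X.map k.subtype)ᵀ) h1
    simp only [Matrix.map_mul, transpose_mul, Matrix.map_one _ k.subtype.map_zero k.subtype.map_one,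
      transpose_one] at h3
    rw [← h3]
    congr 1
    ext i j; exact (st _).symm
  obtain ⟨S, hS, eS⟩ := up s s1 s2
  obtain ⟨T, hT, eT⟩ := up t t1 t2
  have m1 : S * S = y := Units.ext (by rw [Units.val_mul, eS, ← Matrix.map_mul, s3, ez])
  have m2 : T * T = y := Units.ext (by rw [Units.val_mul, eT, ← Matrix.map_mul, t3, ez])
  have m3 : S * T = y * T * S := Units.ext (by
    simp only [Units.val_mul, eS, eT, ← ez, ← Matrix.map_mul, s4])
  refine q8_core h2 a b hk hf (s := g * S * g⁻¹) (t := g * T * g⁻¹) (le hS) (le hT) ?_ ?_ ?_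
  · rw [hy', ← m1]; group
  · rw [hy', ← m2]; group
  · rw [hy', show g * S * g⁻¹ * (g * T * g⁻¹) = g * (S * T) * g⁻¹ by group, m3]; group

/-- same binders as `H2.S7.no_sl3` -/
theorem no_su3 {G : Type*} [Group G] [Finite F] (h2 : (2 : F) ≠ 0)
    (a : G →* GL (Fin 3) F) (b : G →* GL (Fin 4) F) (hk : ∀ g, a g = 1 → (b g).1 = 1 ∨ (b g).1 = -1)
    {P : Subgroup (GL (Fin 3) F)} {g : GL (Fin 3) F} {k : Subfield F} {q : ℕ} (hP : H8.IsSU3 P g k q)
    (le : P ≤ a.range) (nm : NormG a.range P) {f : G} (f1 : a f * a f = 1) (f2 : ¬ IsScal (a f).1)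
    (f4 : (a f).1.det = 1) {ω c : F} (hω : H2.S7.Om7 ω) (hc : 7 * c ^ 2 = -1)
    (f3 : (b f).1 = c • !![1,2,2,2; 1,ω+ω^6,ω^2+ω^5,ω^4+ω^3; 1,ω^2+ω^5,ω^4+ω^3,ω+ω^6;
      1,ω^4+ω^3,ω+ω^6,ω^2+ω^5]) : False :=
  no_su3' h2 a b hk hP le nm f1 f2 f4 (by
    rw [f3, smul_mul_smul_comm]
    erw [H2.S7.N.Φw2 hω]
    rw [smul_smul, show c * c * 7 = -1 by linear_combination hc, neg_smul, one_smul])

end Cfsg.Agent.H6.C7U
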