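import Cfsg.Agent.H5.U.Field

/-! Quaternion subgroups with a prescribed central involution. -/

set_option autoImplicit false
set_option linter.unusedSimpArgs false
set_option linter.unusedSectionVars false
set_option linter.unusedVariables false

namespace Cfsg.Agent.H6.C7U

open Matrix Cfsg.Agent.H5.U

/-- an involution whose lifts have order four is not the centre of a quaternion group -/
theorem q8_core {G A F : Type*} [Group G] [Group A] [Field F] {n : Type} [Fintype n] [DecidableEq n]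
    [Nonempty n] (h2 : (2 : F) ≠ 0) (a : G →* A) (b : G →* GL n F)
    (hk : ∀ g, a g = 1 → (b g).1 = 1 ∨ (b g).1 = -1) {f : G} (hf : (b f).1 * (b f).1 = -1)
    {s t : A} (hs : s ∈ a.range) (ht : t ∈ a.range) (e1 : s * s = a f) (e2 : t * t = a f)
    (e3 : s * t = a f * t * s) : False := by
  obtain ⟨s, rfl⟩ := hs
  obtain ⟨t, rfl⟩ := ht
  have k : ∀ x y : G, a x = a y → ∃ e : F, e * e = 1 ∧ (b x).1 = e • (b y).1 := fun x y h => by
    have := hk (x * y⁻¹) (by rw [map_mul, map_inv, h, mul_inv_cancel])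
    rw [map_mul, map_inv, Units.val_mul, Units.mul_inv_eq_iff_eq_mul, Units.mul_inv_eq_iff_eq_mul] at this
    rcases this with h | h
    · exact ⟨1, by simp, by simp [h]⟩
    · exact ⟨-1, by simp, by simp [h]⟩
  obtain ⟨c1, d1, k1⟩ := k (s * s) f (by rw [map_mul, e1])
  obtain ⟨c2, d2, k2⟩ := k (t * t) f (by rw [map_mul, e2])
  obtain ⟨c3, d3, k3⟩ := k (s * t) (f * t * s) (by simp only [map_mul, e3])
  simp only [map_mul, Units.val_mul] at k1 k2 k3
  have u : IsUnit ((b t).1 * (b f).1) := ((b t).isUnit).mul (b f).isUnit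
  generalize (b s).1 = S, (b t).1 = T, (b f).1 = P at *
  have p1 : P = c1 • (S * S) := by rw [k1, smul_smul, d1, one_smul]
  have p2 : P = c2 • (T * T) := by rw [k2, smul_smul, d2, one_smul]
  have q1 : S * P = P * S := by rw [p1]; simp [Matrix.mul_assoc]
  have q2 : T * P = P * T := by rw [p2]; simp [Matrix.mul_assoc]
  have : S * S * T = -(T * (S * S)) := by
    calc S * S * T = S * (S * T) := by rw [Matrix.mul_assoc]
      _ = c3 • (P * (S * T) * S) := by
        rw [k3, mul_smul_comm, ← k3]; congr 1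
        simp only [← Matrix.mul_assoc, q1]
      _ = (c3 * c3) • (P * P * (T * (S * S))) := by
        conv_lhs => rw [k3]
        simp only [mul_smul_comm, smul_mul_assoc, smul_smul, Matrix.mul_assoc]
      _ = _ := by rw [d3, hf]; simp
  rw [k1, smul_mul_assoc, mul_smul_comm, ← q2, eq_neg_iff_add_eq_zero, ← add_smul] at this
  rcases smul_eq_zero.1 this with h | h
  · have : c1 = 0 := mul_left_cancel₀ h2 (by linear_combination h)
    simp [this] at d1
  · exact u.ne_zero h

variable {K : Type*} [Field K] [StarRing K] [Fintype K] [NStar K]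

theorem exists_ab (h2 : (2 : K) ≠ 0) {i : K} (hi : i * i = -1) :
    ∃ α β : K, star α = -α ∧ star β = -β ∧ α * α + β * β = -1 := by
  have i0 : i ≠ 0 := by rintro rfl; simp at hi
  have hs : star i * star i = -1 := by rw [← star_mul', hi]; simp
  rcases mul_self_eq_mul_self_iff.1 (hs.trans hi.symm) with e | e
  · have d0 := del_ne (F := K)
    refine ⟨(del K - (del K)⁻¹) / 2, (del K + (del K)⁻¹) / (2 * i), ?_, ?_, ?_⟩
    · simp [star_div₀]; field_simp; ring
    · simp [star_div₀, e]; field_simp; ring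
    · field_simp
      linear_combination (((del K) ^ 2 - 1) ^ 2 + 4 * del K ^ 2) * hi
  · exact ⟨i, 0, e, by simp, by simpa using hi⟩

theorem exists_col {e : Matrix (Fin 3) (Fin 3) K} (h1 : eᴴ = e) (h2 : e * e = e) (h3 : e.trace ≠ 0) :
    ∃ v : Fin 3 → K, e *ᵥ v = v ∧ star v ⬝ᵥ v = 1 := by
  obtain ⟨j, hj⟩ : ∃ j, e j j ≠ 0 := by
    by_contra! h
    exact h3 (by simp [trace, h])
  have hs : ∀ i j, star (e i j) = e j i := fun i j => congrFun (congrFun h1 j) i
  obtain ⟨l, hl⟩ := exists_norm_mul (s := e j j) (t := 1) (hs j j) hj (by simp)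
  refine ⟨l • fun i => e i j, ?_, ?_⟩
  · rw [mulVec_smul]; congr 1; ext i
    exact congrFun (congrFun h2 i) j
  · have := congrFun (congrFun h2 j) j
    rw [mul_apply] at this
    simp only [dotProduct, Pi.star_apply, Pi.smul_apply, smul_eq_mul, star_mul', hs]
    rw [← hl, ← this, Finset.mul_sum]
    exact Finset.sum_congr rfl fun i _ => by ring

theorem cross_uni {a b c d e f : K} (v2 : star a * a + star b * b + star c * c = 1)
    (w2 : star d * d + star e * e + star f * f = 1) (vw : star a * d + star b * e + star c * f = 0)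
    (wv : star d * a + star e * b + star f * c = 0) :
    !![a, d, star (b * f - c * e); b, e, star (c * d - a * f); c, f, star (a * e - b * d)]ᴴ *
      !![a, d, star (b * f - c * e); b, e, star (c * d - a * f); c, f, star (a * e - b * d)] = 1 := by
  simp only [← Matrix.ext_iff, Fin.forall_fin_succ, mul_apply, Fin.sum_univ_three]
  simp [v2, w2, vw, wv]
  refine ⟨by ring, by ring, by ring, by ring, ?_⟩
  linear_combination (star d * d + star e * e + star f * f) * v2 + w2 -
    (star d * a + star e * b + star f * c) * vw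

set_option maxHeartbeats 1000000 in
theorem q8_su (h2 : (2 : K) ≠ 0) {i : K} (hi : i * i = -1) {y : Matrix (Fin 3) (Fin 3) K} (hy : yᴴ = y)
    (y2 : y * y = 1) (tr : y.trace = -1) : ∃ s t : Matrix (Fin 3) (Fin 3) K, sᴴ * s = 1 ∧ tᴴ * t = 1 ∧
      s.det = 1 ∧ t.det = 1 ∧ s * s = y ∧ t * t = y ∧ s * t = y * t * s := by
  have s2 : star (2⁻¹ : K) = 2⁻¹ := by simp
  obtain ⟨v, v1, v2⟩ := exists_col (e := (2⁻¹ : K) • (1 + y)) (by simp [hy])
    (by simp only [smul_mul_smul_comm, mul_add, add_mul, y2, one_mul, mul_one]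
        match_scalars <;> field_simp <;> norm_num)
    (by rw [trace_smul, trace_add, tr, trace_one, smul_eq_mul]
        exact mul_ne_zero (inv_ne_zero h2) (by norm_num [h2]))
  obtain ⟨w, w1, w2⟩ := exists_col (e := (2⁻¹ : K) • (1 - y)) (by simp [hy])
    (by simp only [smul_mul_smul_comm, mul_sub, sub_mul, y2, one_mul, mul_one]
        match_scalars <;> field_simp <;> norm_num)
    (by simp [tr, h2]; intro h; exact h2 (mul_self_eq_zero.1 (by linear_combination h)))
  have yv : y *ᵥ v = v := by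
    rw [smul_mulVec, add_mulVec, one_mulVec, inv_smul_eq_iff₀ h2, two_smul] at v1
    exact add_left_cancel v1
  have yw : y *ᵥ w = -w := by
    rw [smul_mulVec, sub_mulVec, one_mulVec, inv_smul_eq_iff₀ h2, two_smul] at w1
    linear_combination -w1
  have vw : star v ⬝ᵥ w = 0 := by
    have : star v ⬝ᵥ y *ᵥ w = star v ⬝ᵥ w := by
      rw [dotProduct_mulVec, ← hy, ← star_mulVec, yv]
    rw [yw, dotProduct_neg] at this
    exact mul_left_cancel₀ h2 (by linear_combination -this)
  have wv : star w ⬝ᵥ v = 0 := by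
    have := congrArg star vw
    rwa [← star_dotProduct_star, star_star, star_zero] at this
  obtain ⟨U, hU⟩ : ∃ U : Matrix (Fin 3) (Fin 3) K, U = !![v 0, w 0, star (v 1 * w 2 - v 2 * w 1);
    v 1, w 1, star (v 2 * w 0 - v 0 * w 2); v 2, w 2, star (v 0 * w 1 - v 1 * w 0)] := ⟨_, rfl⟩
  have UU : Uᴴ * U = 1 := by
    simp only [dotProduct, Fin.sum_univ_three, Pi.star_apply] at v2 w2 vw wv
    rw [hU]; exact cross_uni v2 w2 vw wv
  have UU' : U * Uᴴ = 1 := mul_eq_one_comm.1 UU
  have hD : Uᴴ * y * U = !![1, 0, 0; 0, -1, 0; 0, 0, -1] := by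
    obtain ⟨D, hD⟩ : ∃ D, Uᴴ * y * U = D := ⟨_, rfl⟩
    have d1 : Dᴴ = D := by rw [← hD]; simp [hy, Matrix.mul_assoc]
    have d2 : D.trace = -1 := by rw [← hD, trace_mul_cycle, UU', one_mul, tr]
    have c0 : U *ᵥ ![1, 0, 0] = v := by ext i; fin_cases i <;> simp [hU, mulVec, dotProduct, Fin.sum_univ_three]
    have c1 : U *ᵥ ![0, 1, 0] = w := by ext i; fin_cases i <;> simp [hU, mulVec, dotProduct, Fin.sum_univ_three]
    have d3 : D *ᵥ ![1, 0, 0] = ![1, 0, 0] := by
      rw [← hD, ← mulVec_mulVec, ← mulVec_mulVec, c0, yv, ← c0, mulVec_mulVec, UU, one_mulVec]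
    have d4 : D *ᵥ ![0, 1, 0] = -![0, 1, 0] := by
      rw [← hD, ← mulVec_mulVec, ← mulVec_mulVec, c1, yw, ← c1, mulVec_neg, mulVec_mulVec, UU, one_mulVec]
    have a := congrFun d3
    have b := congrFun d4
    simp [Fin.forall_fin_succ, mulVec, dotProduct, Fin.sum_univ_three] at a b
    have s02 := congrFun (congrFun d1 0) 2
    have s12 := congrFun (congrFun d1 1) 2
    simp [a, b] at s02 s12
    rw [trace_fin_three] at d2
    rw [hD]
    ext i j
    fin_cases i <;> fin_cases j <;> simp [a, b, ← s02, ← s12]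
    linear_combination d2 - a.1 - b.2.1
  have ey : y = U * !![1, 0, 0; 0, -1, 0; 0, 0, -1] * Uᴴ := by
    rw [← hD]; simp only [← Matrix.mul_assoc, UU', one_mul]; rw [Matrix.mul_assoc, UU', mul_one]
  have m : ∀ X Y : Matrix (Fin 3) (Fin 3) K, U * X * Uᴴ * (U * Y * Uᴴ) = U * (X * Y) * Uᴴ := fun X Y => by
    simp only [Matrix.mul_assoc]; rw [← Matrix.mul_assoc Uᴴ, UU, one_mul]
  have un : ∀ X : Matrix (Fin 3) (Fin 3) K, Xᴴ * X = 1 → (U * X * Uᴴ)ᴴ * (U * X * Uᴴ) = 1 := fun X h => by
    rw [conjTranspose_mul, conjTranspose_mul, conjTranspose_conjTranspose, ← Matrix.mul_assoc U, m, h,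
      mul_one, UU']
  have dt : ∀ X : Matrix (Fin 3) (Fin 3) K, (U * X * Uᴴ).det = X.det := fun X => by
    rw [det_mul, det_mul, mul_right_comm, ← det_mul, UU', det_one, one_mul]
  obtain ⟨α, β, a1, a2, a3⟩ := exists_ab h2 hi
  refine ⟨U * !![1, 0, 0; 0, 0, 1; 0, -1, 0] * Uᴴ, U * !![1, 0, 0; 0, α, β; 0, β, -α] * Uᴴ,
    un _ ?_, un _ ?_, ?_, ?_, ?_, ?_, ?_⟩
  · ext i j; fin_cases i <;> fin_cases j <;> simp [mul_apply, Fin.sum_univ_three]
  · ext i j; fin_cases i <;> fin_cases j <;> simp [mul_apply, Fin.sum_univ_three, a1, a2] <;> grind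
  · rw [dt]; simp [det_fin_three]
  · rw [dt]; simp [det_fin_three]; grind
  · rw [ey, m]; congr 2; ext i j; fin_cases i <;> fin_cases j <;> simp [mul_apply, Fin.sum_univ_three]
  · rw [ey, m]; congr 2; ext i j; fin_cases i <;> fin_cases j <;> simp [mul_apply, Fin.sum_univ_three] <;> grind
  · rw [ey, m, m, m]; congr 2; ext i j; fin_cases i <;> fin_cases j <;> simp [mul_apply, Fin.sum_univ_three]

end Cfsg.Agent.H6.C7U
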